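import Cfsg.Agent.H33.IntrinsicSL2.Quaternion

/-!
A fixed element of odd order cycling the three axes of a quaternion pair.
-/

set_option autoImplicit false
set_option linter.style.haveILetI false

namespace Cfsg.Agent.H33.IntrinsicSL2

open Subgroup
open scoped Pointwise

variable {X : Type*} [Group X]

/-- `h` moves `a` to `b` up to the sign `z`. -/
private def Sends (z h a b : X) : Prop := h * a * h⁻¹ = b ∨ h * a * h⁻¹ = b * z

variable {z : X}

private theorem Sends.inv (H : UPerf z) {h a b : X} (p : Sends z h a b) : Sends z h⁻¹ b a := by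
  rcases p with p | p
  · left; rw [← p]; group
  · right
    have hb : b = h * (a * z) * h⁻¹ := by
      calc b = b * z * z := by rw [mul_assoc, H.mul_self, mul_one]
        _ = h * a * (h⁻¹ * z) := by rw [← p, mul_assoc]
        _ = h * (a * z) * h⁻¹ := by rw [H.comm, ← mul_assoc, ← mul_assoc]
    rw [hb]
    group

private theorem Sends.comp (H : UPerf z) {g h a b e : X} (p : Sends z h a b) (q : Sends z g b e) :
    Sends z (g * h) a e := by
  have e1 : g * h * a * (g * h)⁻¹ = g * (h * a * h⁻¹) * g⁻¹ := by group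
  unfold Sends
  rw [e1]
  rcases p with p | p <;> rw [p]
  · exact q
  · have e2 : g * (b * z) * g⁻¹ = g * b * g⁻¹ * z := by
      calc g * (b * z) * g⁻¹ = g * b * g⁻¹ * (g * z * g⁻¹) := by group
        _ = _ := by rw [H.conj]
    rw [e2]
    rcases q with q | q <;> rw [q]
    · exact Or.inr rfl
    · exact Or.inl (by rw [mul_assoc, H.mul_self, mul_one])

private theorem Sends.mul (H : UPerf z) {h a b a' b' : X} (p : Sends z h a b) (q : Sends z h a' b') :
    Sends z h (a * a') (b * b') := by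
  have e1 : h * (a * a') * h⁻¹ = (h * a * h⁻¹) * (h * a' * h⁻¹) := by group
  unfold Sends
  rw [e1]
  rcases p with p | p <;> rcases q with q | q <;> rw [p, q]
  · exact Or.inl rfl
  · exact Or.inr (mul_assoc _ _ _).symm
  · exact Or.inr (by rw [mul_assoc, ← H.comm b', ← mul_assoc])
  · exact Or.inl (by rw [mul_assoc b z, ← mul_assoc z b', ← H.comm b', mul_assoc b' z z, H.mul_self,
      mul_one])

private theorem sends_of_or (H : UPerf z) {h a b : X} (hb : b * b = z)
    (p : h * a * h⁻¹ = b ∨ h * a * h⁻¹ = b⁻¹) : Sends z h a b := by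
  rw [H.inv_of_sq hb] at p; exact p

private theorem or_of_sends (H : UPerf z) {h a b : X} (hb : b * b = z) (p : Sends z h a b) :
    h * a * h⁻¹ = b ∨ h * a * h⁻¹ = b⁻¹ := by
  rw [H.inv_of_sq hb]; exact p

private theorem Sends.retarget (H : UPerf z) {h a b : X} (p : Sends z h a (b * z)) : Sends z h a b := by
  rcases p with p | p
  · exact Or.inr p
  · exact Or.inl (by rw [p, mul_assoc, H.mul_self, mul_one])

variable [Finite X]

/-- Some element cycles the axes of a quaternion pair. -/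
private theorem exists_cycle (H : UPerf z) {c s : X} (hc : c * c = z) (hs : s * s = z)
    (hcs : c * s * c⁻¹ = s⁻¹) : ∃ h, Sends z h c s ∧ Sends z h s (c * s) := by
  obtain ⟨hx, hsc, hcx, -⟩ := mul_pair_sq H hcs hc hs
  have hcxs : c * (c * s) = s * z := by rw [← mul_assoc, hc, H.comm s]
  obtain ⟨h0, p0, q0⟩ := H.axes hc hs hcs
  have p0' := sends_of_or H hs p0
  rcases (by tauto : (h0⁻¹ * c * h0 = s ∨ h0⁻¹ * c * h0 = s⁻¹) ∨
      (h0⁻¹ * c * h0 = c * s ∨ h0⁻¹ * c * h0 = (c * s)⁻¹)) with q | q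
  · -- `h0` exchanges the first two axes
    have q' : Sends z h0⁻¹ c s := sends_of_or H hs (by simpa using q)
    have r0 : Sends z h0 s c := by simpa using q'.inv H
    obtain ⟨h1, p1, q1⟩ := H.axes hc hx hcx
    have p1' := sends_of_or H hx p1
    rcases (by tauto : (h1⁻¹ * c * h1 = c * s ∨ h1⁻¹ * c * h1 = (c * s)⁻¹) ∨
        (h1⁻¹ * c * h1 = c * (c * s) ∨ h1⁻¹ * c * h1 = (c * (c * s))⁻¹)) with q | q
    · -- `h1` exchanges the first and the third
      have r1 : Sends z h1 (c * s) c := by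
        simpa using (sends_of_or H hx (h := h1⁻¹) (by simpa using q)).inv H
      refine ⟨h1 * h0, p0'.comp H ?_, r0.comp H p1'⟩
      have e := p1'.mul H r1
      rw [hcxs] at e
      have e2 : c * s * c = s := by
        rw [mul_assoc, hsc, ← mul_assoc, ← mul_assoc, hc, mul_assoc, H.comm s, ← mul_assoc,
          H.mul_self, one_mul]
      rw [e2] at e
      have e3 : h1 * (s * z) * h1⁻¹ = h1 * s * h1⁻¹ * z := by
        calc _ = h1 * s * h1⁻¹ * (h1 * z * h1⁻¹) := by group
          _ = _ := by rw [H.conj]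
      rcases e with e | e <;> rw [e3] at e
      · exact Or.inr ((eq_mul_inv_of_mul_eq e).trans (by rw [H.inv_eq]))
      · exact Or.inl (mul_right_cancel e)
    · -- `h1` cycles
      have hcxq : (c * (c * s)) * (c * (c * s)) = z := by
        rw [hcxs]; calc s * z * (s * z) = s * (z * s) * z := by group
          _ = s * (s * z) * z := by rw [H.comm s]
          _ = z := by rw [← mul_assoc, hs, H.mul_self, one_mul]
      have t1 : Sends z h1⁻¹ c (c * (c * s)) := sends_of_or H hcxq (by simpa using q)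
      rw [hcxs] at t1
      have t1' := t1.retarget H
      have t2 : Sends z h1⁻¹ (c * s) c := p1'.inv H
      have t3 := t1'.mul H t2
      rw [hcxs, hsc] at t3
      refine ⟨h1⁻¹, t1', ?_⟩
      have t4 : h1⁻¹ * (s * z) * h1⁻¹⁻¹ = h1⁻¹ * s * h1⁻¹⁻¹ * z := by
        calc _ = h1⁻¹ * s * h1⁻¹⁻¹ * (h1⁻¹ * z * h1⁻¹⁻¹) := by group
          _ = _ := by rw [H.conj]
      rcases t3 with t | t <;> rw [t4] at t
      · exact Or.inl (mul_right_cancel t)
      · exact Or.inr (mul_right_cancel t)
  · -- `h0` cycles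
    have r0 : Sends z h0 (c * s) c := by
      simpa using (sends_of_or H hx (h := h0⁻¹) (by simpa using q)).inv H
    refine ⟨h0, p0', ?_⟩
    have e := p0'.mul H r0
    rw [hcxs, hsc] at e
    have e3 : h0 * (s * z) * h0⁻¹ = h0 * s * h0⁻¹ * z := by
      calc _ = h0 * s * h0⁻¹ * (h0 * z * h0⁻¹) := by group
        _ = _ := by rw [H.conj]
    rcases e with e | e <;> rw [e3] at e
    · exact Or.inl (mul_right_cancel e)
    · exact Or.inr (mul_right_cancel e)

/-- A two-element centralising a quaternion pair is `1` or `z`. -/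
private theorem two_elem_centralizing (H : UPerf z) {c s x : X} (hc : c * c = z) (hs : s * s = z)
    (hcs : c * s * c⁻¹ = s⁻¹) (hx : IsPGroup 2 ↥(zpowers x)) (hxc : x * c = c * x)
    (hxs : x * s = s * x) : x = 1 ∨ x = z := by
  haveI : Fact (Nat.Prime 2) := ⟨Nat.prime_two⟩
  have h4 : ∀ a : X, a * a = z → IsPGroup 2 (zpowers a) := fun a ha => by
    refine IsPGroup.of_card (n := 2) ?_
    rw [Nat.card_zpowers]
    refine orderOf_eq_prime_pow (p := 2) (n := 1) ?_ ?_
    · intro h
      rw [pow_one, pow_two, ha] at h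
      exact H.ne_one h
    · rw [show 2 ^ (1 + 1) = 2 + 2 from rfl, pow_add, pow_two, ha, H.mul_self]
  have hnorm : c ∈ normalizer (zpowers s : Set X) := by
    rw [H51.mem_normalizer_iff_map_conj_eq, MonoidHom.map_zpowers]
    show zpowers (c * s * c⁻¹) = zpowers s
    rw [hcs, zpowers_inv]
  set W := zpowers s ⊔ zpowers c
  have hW : IsPGroup 2 W := (h4 s hs).to_sup_of_normal_left' (h4 c hc) (zpowers_le.mpr hnorm)
  have hxW : zpowers x ≤ normalizer (W : Set X) :=
    (zpowers_le.mpr (show x ∈ centralizer (W : Set X) from by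
      rw [mem_centralizer_iff]
      intro w hw
      have hle : W ≤ centralizer ({x} : Set X) := sup_le
        (zpowers_le.mpr (mem_centralizer_singleton_iff.mpr hxs.symm))
        (zpowers_le.mpr (mem_centralizer_singleton_iff.mpr hxc.symm))
      exact mem_centralizer_singleton_iff.mp (hle hw))).trans (centralizer_le_normalizer _)
  obtain ⟨Q, hQ⟩ := (hW.to_sup_of_normal_left' hx hxW).exists_le_sylow
  have hcQ : c ∈ (Q : Subgroup X) := hQ (mem_sup_left (mem_sup_right (mem_zpowers c)))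
  have hsQ : s ∈ (Q : Subgroup X) := hQ (mem_sup_left (mem_sup_left (mem_zpowers s)))
  have hxQ : x ∈ (Q : Subgroup X) := hQ (mem_sup_right (mem_zpowers x))
  obtain ⟨-, r, hS⟩ := H.exists_shape Q
  obtain ⟨hx2, -, -, -⟩ := mul_pair_sq H hcs hc hs
  have hne : ∀ e : X, e * e = z → e ≠ e⁻¹ := fun e he h => H.ne_one (by
    rw [← he]; nth_rw 1 [h]; exact inv_mul_cancel e)
  have hxr : x ∈ zpowers r := by
    by_contra hxr
    have key : ∀ e ∈ zpowers r, x * e = e * x → e * e = z → False := fun e he hxe hez => by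
      have h := hS.inv_conj hxQ hxr he
      rw [hxe, mul_inv_cancel_right] at h
      exact hne e hez h
    by_cases hcr : c ∈ zpowers r
    · exact key c hcr hxc hc
    by_cases hsr : s ∈ zpowers r
    · exact key s hsr hxs hs
    exact key (c * s) (hS.prod c hcQ s hsQ hcr hsr)
      (by rw [← mul_assoc, hxc, mul_assoc, hxs, mul_assoc]) hx2
  refine H.sq_one ?_
  have key : ∀ e ∈ (Q : Subgroup X), e ∉ zpowers r → x * e = e * x → x * x = 1 := fun e he her hxe => by
    have h := hS.inv_conj he her hxr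
    rw [← hxe, mul_inv_cancel_right] at h
    nth_rw 1 [h]
    exact inv_mul_cancel x
  by_cases hcr : c ∈ zpowers r
  · refine key s hsQ (fun hsr => ?_) hxs
    rw [hS.comm hcr hsr, mul_inv_cancel_right] at hcs
    exact hne s hs hcs
  · exact key c hcQ hcr hxc

/-- The centralizer of a quaternion pair has twice odd order. -/
private theorem card_centralizer_pair (H : UPerf z) {c s : X} (hc : c * c = z) (hs : s * s = z)
    (hcs : c * s * c⁻¹ = s⁻¹) :
    ∃ m, Odd m ∧ Nat.card ↥(centralizer ({c, s} : Set X)) = 2 * m := by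
  haveI : Fact (Nat.Prime 2) := ⟨Nat.prime_two⟩
  set C := centralizer ({c, s} : Set X)
  have hzC : z ∈ C := mem_centralizer_iff.mpr fun w _ => H.comm w
  have h2 : 2 ∣ Nat.card ↥C := by
    rw [← H.ord, ← orderOf_mk z hzC]
    exact orderOf_dvd_natCard _
  obtain ⟨m, hm⟩ := h2
  refine ⟨m, Nat.not_even_iff_odd.mp fun ⟨j, hj⟩ => ?_, hm⟩
  obtain ⟨P, hP⟩ := Sylow.exists_subgroup_card_pow_prime (G := ↥C) 2 (n := 2)
    ⟨j, by rw [hm, hj]; ring⟩
  have hsub : ((P.map C.subtype : Subgroup X) : Set X) ⊆ {1, z} := by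
    rintro _ ⟨a, ha, rfl⟩
    have hp : IsPGroup 2 ↥(zpowers (a : X)) :=
      ((IsPGroup.of_card hP).map C.subtype).to_le (zpowers_le.mpr ⟨a, ha, rfl⟩)
    have := mem_centralizer_iff.mp a.2
    simpa using two_elem_centralizing H hc hs hcs hp (this c (by simp)).symm (this s (by simp)).symm
  have h1 := Set.ncard_le_ncard hsub (Set.toFinite _)
  rw [Set.ncard_pair H.ne_one.symm, ← Nat.card_coe_set_eq] at h1
  have h3 : Nat.card ↥(P.map C.subtype) = 4 := by
    rw [Nat.card_congr (P.equivMapOfInjective C.subtype C.subtype_injective).symm.toEquiv, hP]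
    norm_num
  exact absurd h1 (by rw [show Nat.card ↥((P.map C.subtype : Subgroup X) : Set X) = 4 from h3]; norm_num)

/-- An involutory automorphism fixing a quaternion pair fixes an element of odd order cycling
its axes. -/
theorem UPerf.exists_fixed_cycle {X : Type*} [Group X] [Finite X] {z : X} (H : UPerf z)
    (α : MulAut X) (hα : ∀ x, α (α x) = x) {c s : X} (hc : c * c = z) (hs : s * s = z)
    (hcs : c * s * c⁻¹ = s⁻¹) (hαc : α c = c) (hαs : α s = s) :
    ∃ h : X, α h = h ∧ Odd (orderOf h) ∧ (h * c * h⁻¹ = s ∨ h * c * h⁻¹ = s⁻¹) ∧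
      (h * s * h⁻¹ = c * s ∨ h * s * h⁻¹ = (c * s)⁻¹) := by
  obtain ⟨hx, hsc, -, -⟩ := mul_pair_sq H hcs hc hs
  have hsx : s * (c * s) = c := by
    rw [← mul_assoc, hsc, mul_assoc (c * s) z s, ← H.comm s, ← mul_assoc, mul_assoc c s s, hs,
      mul_assoc, H.mul_self, mul_one]
  -- an element of odd order cycling the axes
  obtain ⟨g, hg⟩ := exists_cycle H hc hs hcs
  have step : ∀ u : X, Sends z u c s ∧ Sends z u s (c * s) →
      Sends z (u ^ 4) c s ∧ Sends z (u ^ 4) s (c * s) := by
    rintro u ⟨u1, u2⟩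
    have u3 : Sends z u (c * s) c := by
      have := u1.mul H u2
      rwa [hsx] at this
    have v1 := ((u1.comp H u2).comp H u3).comp H u1
    have v2 := ((u2.comp H u3).comp H u1).comp H u2
    have e : u * (u * (u * u)) = u ^ 4 := by simp [pow_succ, mul_assoc]
    rw [e] at v1 v2
    exact ⟨v1, v2⟩
  have hiter : ∀ k : ℕ, Sends z (g ^ 4 ^ k) c s ∧ Sends z (g ^ 4 ^ k) s (c * s) := by
    intro k
    induction k with
    | zero => simpa using hg
    | succ k ih => rw [pow_succ, pow_mul]; exact step _ ih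
  obtain ⟨a, b, hb, hab⟩ := Nat.exists_eq_two_pow_mul_odd (orderOf_pos g).ne'
  set h := g ^ 4 ^ a with hh
  obtain ⟨h1, h2⟩ := hiter a
  rw [← hh] at h1 h2
  have hodd : Odd (orderOf h) := by
    refine hb.of_dvd_nat (orderOf_dvd_of_pow_eq_one ?_)
    rw [hh, ← pow_mul, ← orderOf_dvd_iff_pow_eq_one, hab]
    exact mul_dvd_mul_right (by rw [show 4 = 2 * 2 from rfl, mul_pow]; exact dvd_mul_right _ _) _
  have h3 : Sends z h (c * s) c := by
    have := h1.mul H h2
    rwa [hsx] at this
  -- the centralizer of the pair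
  set C := centralizer ({c, s} : Set X) with hC
  have hCmem : ∀ e, e ∈ C ↔ e * c = c * e ∧ e * s = s * e := fun e => by
    rw [hC, mem_centralizer_iff]
    exact ⟨fun h => ⟨(h c (Or.inl rfl)).symm, (h s (Or.inr rfl)).symm⟩, fun h w hw => by
      rcases hw with rfl | rfl
      exacts [h.1.symm, h.2.symm]⟩
  obtain ⟨m, hm, hcard⟩ := card_centralizer_pair H hc hs hcs
  rw [← hC] at hcard
  have hzC : z ∈ C := (hCmem z).mpr ⟨(H.comm c).symm, (H.comm s).symm⟩
  haveI hzn : (zpowers (⟨z, hzC⟩ : ↥C)).Normal := ⟨fun n hn e => by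
    obtain ⟨i, rfl⟩ := mem_zpowers_iff.mp hn
    have hcz : Commute e (⟨z, hzC⟩ : ↥C) := Subtype.ext (H.comm e)
    rw [(hcz.zpow_right i).eq, mul_inv_cancel_right]
    exact zpow_mem (mem_zpowers _) i⟩
  have hzcard : Nat.card ↥(zpowers (⟨z, hzC⟩ : ↥C)) = 2 := by
    rw [Nat.card_zpowers, orderOf_mk]; exact H.ord
  have hzind : (zpowers (⟨z, hzC⟩ : ↥C)).index = m := by
    have := card_mul_index (zpowers (⟨z, hzC⟩ : ↥C))
    rw [hzcard, hcard] at this
    omega
  obtain ⟨K, hK⟩ := exists_right_complement'_of_coprime (N := zpowers (⟨z, hzC⟩ : ↥C))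
    (by rw [hzcard, hzind]; exact Nat.coprime_two_left.mpr hm)
  have hKcard : Nat.card ↥K = m := by
    have := hK.card_mul_card
    rw [hzcard, hcard] at this
    omega
  have hKind : K.index = 2 := by
    have := card_mul_index K
    rw [hKcard, hcard, mul_comm 2 m] at this
    exact Nat.eq_of_mul_eq_mul_left hm.pos this
  set O := K.map C.subtype
  have hOmem : ∀ e, e ∈ O ↔ e ∈ C ∧ e ^ m = 1 := by
    intro e
    constructor
    · rintro ⟨k, hk, rfl⟩
      refine ⟨k.2, ?_⟩
      have := pow_card_eq_one' (x := (⟨k, hk⟩ : ↥K))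
      rw [hKcard] at this
      exact congrArg (fun t : ↥K => ((t : ↥C) : X)) this
    · rintro ⟨he, hem⟩
      refine ⟨⟨e, he⟩, ?_, rfl⟩
      obtain ⟨j, hj⟩ := hm
      have e1 : (⟨e, he⟩ : ↥C) = ((⟨e, he⟩ : ↥C) ^ 2) ^ (j + 1) := by
        refine Subtype.ext ?_
        simp only [Subgroup.coe_pow]
        rw [← pow_mul, show 2 * (j + 1) = (2 * j + 1) + 1 by ring, pow_succ, ← hj, hem, one_mul]
      rw [e1]
      exact pow_mem (sq_mem_of_index_two hKind _) _
  have hOodd : ∀ e ∈ O, Odd (orderOf e) := fun e he =>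
    hm.of_dvd_nat (orderOf_dvd_of_pow_eq_one ((hOmem e).mp he).2)
  -- `h` normalises the centralizer
  have hfix : ∀ e ∈ C, ∀ t u, (t = c ∨ t = s ∨ t = c * s) → Sends z h t u →
      h * e * h⁻¹ * u = u * (h * e * h⁻¹) := by
    intro e he t u ht hu
    obtain ⟨he1, he2⟩ := (hCmem e).mp he
    have het : e * t = t * e := by
      rcases ht with rfl | rfl | rfl
      exacts [he1, he2, by rw [← mul_assoc, he1, mul_assoc, he2, mul_assoc]]
    have e1 : h * e * h⁻¹ * (h * t * h⁻¹) = h * t * h⁻¹ * (h * e * h⁻¹) := by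
      calc _ = h * (e * t) * h⁻¹ := by group
        _ = _ := by rw [het]; group
    rcases hu with hu | hu <;> rw [hu] at e1
    · exact e1
    · rw [mul_assoc u z, ← H.comm (h * e * h⁻¹), ← mul_assoc, ← mul_assoc] at e1
      exact mul_right_cancel e1
  have hnC : ∀ e ∈ C, h * e * h⁻¹ ∈ C := fun e he => (hCmem _).mpr
    ⟨hfix e he (c * s) c (Or.inr (Or.inr rfl)) h3, hfix e he c s (Or.inl rfl) h1⟩
  have hnO : ∀ e ∈ O, h * e * h⁻¹ ∈ O := fun e he => (hOmem _).mpr
    ⟨hnC e ((hOmem e).mp he).1, by rw [conj_pow, ((hOmem e).mp he).2, mul_one, mul_inv_cancel]⟩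
  have hprod : ∀ d ∈ O, Odd (orderOf (h * d)) := by
    intro d hd
    have hw : ∀ i : ℕ, (h * d) ^ i * (h ^ i)⁻¹ ∈ O := by
      intro i
      induction i with
      | zero => simp
      | succ i ih =>
        rw [show (h * d) ^ (i + 1) * (h ^ (i + 1))⁻¹ =
            (h * d * h⁻¹) * (h * ((h * d) ^ i * (h ^ i)⁻¹) * h⁻¹) by
          rw [pow_succ', pow_succ]; group]
        exact mul_mem (hnO d hd) (hnO _ ih)
    have h5 := hw (orderOf h)
    rw [pow_orderOf_eq_one, inv_one, mul_one] at h5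
    refine (hodd.mul hm).of_dvd_nat (orderOf_dvd_of_pow_eq_one ?_)
    rw [pow_mul]
    exact ((hOmem _).mp h5).2
  -- the twist
  set o := h⁻¹ * α h with ho
  have hαh : α h = h * o := by rw [ho, mul_inv_cancel_left]
  have hαz : α z = z := H.uniq _ (by rw [← H.ord]; exact orderOf_injective α.toMonoidHom α.injective z)
  have hcomm : ∀ t u, α t = t → α u = u → Sends z h t u → o * t = t * o := by
    intro t u ht hu p
    have e1 : α h * t * (α h)⁻¹ = h * t * h⁻¹ := by
      have : α (h * t * h⁻¹) = h * t * h⁻¹ := by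
        rcases p with p | p <;> rw [p]
        · exact hu
        · rw [map_mul, hu, hαz]
      rwa [map_mul, map_mul, map_inv, ht] at this
    rw [hαh] at e1
    have e2 : o * t * o⁻¹ = t := by
      calc o * t * o⁻¹ = h⁻¹ * (h * o * t * (h * o)⁻¹) * h := by group
        _ = t := by rw [e1]; group
    exact mul_inv_eq_iff_eq_mul.mp e2
  have hoC : o ∈ C := (hCmem o).mpr ⟨hcomm c s hαc hαs h1,
    hcomm s (c * s) hαs (by rw [map_mul, hαc, hαs]) h2⟩
  have hoO : o ∈ O := by
    have hpow : o ^ (2 * m) = 1 := by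
      have h6 := pow_card_eq_one' (x := (⟨o, hoC⟩ : ↥C))
      rw [hcard] at h6
      simpa using congrArg Subtype.val h6
    rcases H.sq_one (u := o ^ m) (by rw [← pow_add, ← two_mul, hpow]) with h6 | h6
    · exact (hOmem o).mpr ⟨hoC, h6⟩
    exfalso
    have hoz : o * z ∈ O := (hOmem _).mpr ⟨mul_mem hoC hzC, by
      rw [(H.comm o : o * z = z * o) |> (fun e => (show Commute o z from e).mul_pow m), h6]
      obtain ⟨j, rfl⟩ := hm
      rw [pow_succ, pow_mul, pow_two, H.mul_self, one_pow, one_mul, H.mul_self]⟩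
    have hq := hprod _ hoz
    set q := orderOf (h * (o * z)) with hqdef
    have e1 : (α h * z) ^ q = 1 := by rw [hαh, mul_assoc, hqdef, pow_orderOf_eq_one]
    rw [(show Commute (α h) z from H.comm _).mul_pow] at e1
    have hzq : z ^ q = z := by
      obtain ⟨j, hj⟩ := hq
      rw [hj, pow_succ, pow_mul, pow_two, H.mul_self, one_pow, one_mul]
    rw [hzq] at e1
    have hn : Odd (orderOf (α h)) := by
      rw [show orderOf (α h) = orderOf h from orderOf_injective α.toMonoidHom α.injective h]; exact hodd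
    have e2 : (α h ^ q) ^ orderOf (α h) = 1 := by
      rw [← pow_mul, mul_comm, pow_mul, pow_orderOf_eq_one, one_pow]
    have e3 : α h ^ q = z := by rw [eq_inv_of_mul_eq_one_left e1, H.inv_eq]
    obtain ⟨j, hj⟩ := hn
    rw [e3, hj, pow_succ, pow_mul, pow_two, H.mul_self, one_pow, one_mul] at e2
    exact H.ne_one e2
  have hαo : α o = o⁻¹ := by
    rw [ho, map_mul, map_inv, hα, mul_inv_rev, inv_inv]
  obtain ⟨j, hj⟩ := hOodd o hoO
  set d := o ^ (j + 1) with hd
  have hdd : d * d = o := by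
    rw [hd, ← pow_add, show j + 1 + (j + 1) = (2 * j + 1) + 1 by ring, pow_succ, ← hj,
      pow_orderOf_eq_one, one_mul]
  have hdO : d ∈ O := pow_mem hoO _
  obtain ⟨hdc, hds⟩ := (hCmem d).mp ((hOmem d).mp hdO).1
  refine ⟨h * d, ?_, hprod d hdO, ?_, ?_⟩
  · rw [map_mul, hαh, hd, map_pow, hαo, inv_pow, ← hd]
    nth_rw 1 [← hdd]
    group
  · rw [show h * d * c * (h * d)⁻¹ = h * (d * c * d⁻¹) * h⁻¹ by group, hdc, mul_inv_cancel_right]
    exact or_of_sends H hs h1
  · rw [show h * d * s * (h * d)⁻¹ = h * (d * s * d⁻¹) * h⁻¹ by group, hds, mul_inv_cancel_right]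
    exact or_of_sends H hx h2

end Cfsg.Agent.H33.IntrinsicSL2
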