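import Cfsg.Agent.H33.IntrinsicSL2.Quaternion

/-!
The centraliser of a square root of the involution has cyclic 2-subgroups.
-/

set_option autoImplicit false

namespace Cfsg.Agent.H33.IntrinsicSL2

open Subgroup

variable {X : Type*} [Group X] [Finite X]

theorem UPerf.isCyclic_of_centralises_root {z : X} (H : UPerf z) {c : X} (hc : c * c = z)
    {T : Subgroup X} (hT : IsPGroup 2 T) (hTc : T ≤ centralizer ({c} : Set X)) : IsCyclic T := by
  haveI : Fact (Nat.Prime 2) := ⟨Nat.prime_two⟩
  have h4 : IsPGroup 2 (zpowers c) := by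
    rintro ⟨y, hy⟩
    obtain ⟨i, rfl⟩ := mem_zpowers_iff.mp hy
    refine ⟨2, Subtype.ext ?_⟩
    change (c ^ i) ^ 2 ^ 2 = 1
    rw [← zpow_natCast, ← zpow_mul, mul_comm, zpow_mul, zpow_natCast,
      show 2 ^ 2 = 2 + 2 from rfl, pow_add, pow_two, hc, H.mul_self, one_zpow]
  have hn : T ≤ normalizer (zpowers c : Set X) := fun g hg => by
    rw [H51.mem_normalizer_iff_map_conj_eq, MonoidHom.map_zpowers]
    show zpowers (g * c * g⁻¹) = zpowers c
    rw [mem_centralizer_singleton_iff.mp (hTc hg), mul_inv_cancel_right]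
  obtain ⟨Q, hQ⟩ := (hT.to_sup_of_normal_right' h4 hn).exists_le_sylow
  obtain ⟨-, r, hS⟩ := H.exists_shape Q
  have hcQ : c ∈ (Q : Subgroup X) := hQ (le_sup_right (α := Subgroup X) (mem_zpowers c))
  have hTQ : T ≤ (Q : Subgroup X) := le_sup_left.trans hQ
  have key : ∀ g ∈ T, ∀ h ∈ T, g * h = h * g := by
    intro g hg h hh
    have hgc := mem_centralizer_singleton_iff.mp (hTc hg)
    have hhc := mem_centralizer_singleton_iff.mp (hTc hh)
    by_cases hcr : c ∈ zpowers r
    · have hin : ∀ x ∈ (Q : Subgroup X), x * c = c * x → x ∈ zpowers r := by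
        intro x hx hxc
        by_contra hxr
        have e := hS.inv_conj hx hxr hcr
        rw [hxc, mul_inv_cancel_right] at e
        exact H.ne_one (by rw [← hc]; nth_rw 1 [e]; exact inv_mul_cancel c)
      exact hS.comm (hin g (hTQ hg) hgc) (hin h (hTQ hh) hhc)
    · have hin : ∀ x ∈ (Q : Subgroup X), x * c = c * x → x ∈ zpowers c := by
        intro x hx hxc
        have hzc : z ∈ zpowers c := hc ▸ mul_mem (mem_zpowers c) (mem_zpowers c)
        have hone : ∀ y ∈ zpowers r, y * c = c * y → y ∈ zpowers c := by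
          intro y hy hyc
          have e := hS.inv_conj hcQ hcr hy
          rw [← hyc, mul_inv_cancel_right] at e
          rcases H.sq_one (u := y) (by nth_rw 1 [e]; exact inv_mul_cancel y) with h | h <;> rw [h]
          · exact one_mem _
          · exact hzc
        by_cases hxr : x ∈ zpowers r
        · exact hone x hxr hxc
        · have hp := hone _ (hS.prod x hx c hcQ hxr hcr) (by
            calc x * c * c = c * x * c := by rw [hxc]
              _ = c * (x * c) := by group)
          exact (mul_mem_cancel_right (mem_zpowers c)).mp hp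
      obtain ⟨i, rfl⟩ := mem_zpowers_iff.mp (hin g (hTQ hg) hgc)
      obtain ⟨j, rfl⟩ := mem_zpowers_iff.mp (hin h (hTQ hh) hhc)
      exact zpow_mul_comm c i j
  obtain ⟨a, haT, ha⟩ := H51.FourGroupRankOne.exists_generator_of_unique_involution hT key
    (z := z) (fun a _ h => H.sq_one h)
  refine ⟨⟨a, haT⟩, fun b => ?_⟩
  obtain ⟨i, hi⟩ := mem_zpowers_iff.mp (ha b b.2)
  exact mem_zpowers_iff.mpr ⟨i, Subtype.ext (by simpa using hi)⟩

end Cfsg.Agent.H33.IntrinsicSL2
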