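import Mathlib.GroupTheory.Transfer
import Mathlib.GroupTheory.Sylow
import Mathlib.GroupTheory.SpecificGroups.Cyclic
import Mathlib.GroupTheory.Abelianization.Defs

/-!
Groups with cyclic Sylow two-subgroups, and crossed homomorphisms into them.
-/

set_option autoImplicit false
set_option linter.style.haveILetI false

namespace Cfsg.Agent.H33.IntrinsicSL2

open Subgroup
open scoped commutatorElement

/-- A retraction onto a cyclic Sylow two-subgroup, killing exactly the elements of odd order. -/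
theorem exists_two_part_hom {Kb : Type*} [Group Kb] [Finite Kb]
    (hcyc : ∀ T : Subgroup Kb, IsPGroup 2 ↥T → IsCyclic ↥T) :
    ∃ Q : Subgroup Kb, IsCyclic ↥Q ∧ ∃ f : Kb →* ↥Q, ∀ x, f x = 1 ↔ Odd (orderOf x) := by
  haveI : Fact (Nat.Prime 2) := ⟨Nat.prime_two⟩
  obtain ⟨Q⟩ : Nonempty (Sylow 2 Kb) := inferInstance
  have hQ : IsCyclic ↥(Q : Subgroup Kb) := hcyc _ Q.isPGroup'
  by_cases h2 : 2 ∣ Nat.card Kb
  · have hN := IsCyclic.normalizer_le_centralizer (P := Q) ((Nat.minFac_eq_two_iff _).mpr h2) hQ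
    refine ⟨_, hQ, MonoidHom.transferSylow Q hN, fun x => ⟨fun hx => ?_, fun hx => ?_⟩⟩
    · have hc := MonoidHom.ker_transferSylow_isComplement' Q hN
      have hodd : Odd (Nat.card ↥(MonoidHom.transferSylow Q hN).ker) := by
        rw [← hc.index_eq_card]
        exact Nat.not_even_iff_odd.mp fun h => Q.not_dvd_index h.two_dvd
      refine hodd.of_dvd_nat ?_
      rw [← orderOf_mk x (MonoidHom.mem_ker.mpr hx)]
      exact orderOf_dvd_natCard _
    · obtain ⟨k, hk⟩ := IsPGroup.iff_orderOf.mp Q.isPGroup' (MonoidHom.transferSylow Q hN x)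
      have hd := orderOf_map_dvd (MonoidHom.transferSylow Q hN) x
      rw [hk] at hd
      cases k with
      | zero => exact orderOf_eq_one_iff.mp (by simpa using hk)
      | succ k =>
        exact absurd ((dvd_pow_self 2 k.succ_ne_zero).trans hd) (Nat.two_dvd_ne_zero.mpr
          (Nat.odd_iff.mp hx))
  · haveI := hQ
    refine ⟨⊥, isCyclic_of_subsingleton, 1, fun x => ⟨fun _ => ?_, fun _ => rfl⟩⟩
    exact Nat.not_even_iff_odd.mp fun h => h2 (h.two_dvd.trans (orderOf_dvd_natCard x))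

/-- A group with cyclic two-subgroups has a normal two-complement. -/
theorem odd_normal_complement {Kb : Type*} [Group Kb] [Finite Kb]
    (hcyc : ∀ T : Subgroup Kb, IsPGroup 2 ↥T → IsCyclic ↥T) :
    ∃ O : Subgroup Kb, O.Normal ∧ ∀ x, x ∈ O ↔ Odd (orderOf x) := by
  obtain ⟨Q, -, f, hf⟩ := exists_two_part_hom hcyc
  exact ⟨f.ker, inferInstance, fun x => MonoidHom.mem_ker.trans (hf x)⟩

/-- A crossed homomorphism into a group with cyclic two-subgroups has odd values on the second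
derived subgroup. -/
theorem crossed_odd {Kb Φ : Type*} [Group Kb] [Finite Kb] [Group Φ] (α : Φ →* MulAut Kb)
    (U : Subgroup Kb) (hcyc : ∀ T : Subgroup Kb, T ≤ U → IsPGroup 2 ↥T → IsCyclic ↥T)
    (hU : ∀ p, ∀ u ∈ U, α p u ∈ U) (w : Kb) (hw : ∀ p, w⁻¹ * α p w ∈ U) {p : Φ}
    (hp : p ∈ ⁅commutator Φ, commutator Φ⁆) : Odd (orderOf (w⁻¹ * α p w)) := by
  obtain ⟨Q, hQ, f, hf⟩ := exists_two_part_hom (Kb := ↥U) fun T hT => by
    haveI := hcyc (T.map U.subtype) (map_subtype_le T) (hT.map _)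
    exact isCyclic_of_injective (T.equivMapOfInjective U.subtype U.subtype_injective).toMonoidHom
      (T.equivMapOfInjective U.subtype U.subtype_injective).injective
  haveI := hQ
  let β : Φ → ↥U →* ↥U := fun q =>
    ((α q).toMonoidHom.comp U.subtype).codRestrict U fun u => hU q u u.2
  have hβmul : ∀ a b u, β (a * b) u = β a (β b u) := fun a b u => Subtype.ext (by
    show α (a * b) (u : Kb) = α a (α b (u : Kb))
    rw [map_mul, MulAut.mul_apply])
  have hβone : ∀ u, β 1 u = u := fun u => Subtype.ext (by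
    show α 1 (u : Kb) = u
    rw [map_one, MulAut.one_apply])
  have hker : ∀ q u, f u = 1 → f (β q u) = 1 := fun q u h => (hf _).mpr (by
    rw [← Subgroup.orderOf_coe]
    show Odd (orderOf (α q (u : Kb)))
    rw [MulEquiv.orderOf_eq, Subgroup.orderOf_coe]
    exact (hf u).mp h)
  obtain ⟨⟨_, u0, rfl⟩, hgen⟩ := IsCyclic.exists_generator (α := ↥f.range)
  have hspan : ∀ u, ∃ i : ℤ, f u0 ^ i = f u := fun u => by
    obtain ⟨i, hi⟩ := mem_zpowers_iff.mp (hgen ⟨f u, u, rfl⟩)
    exact ⟨i, by simpa using congrArg Subtype.val hi⟩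
  have hscalar : ∀ q, ∃ a : ℤ, ∀ u, f (β q u) = f u ^ a := by
    intro q
    obtain ⟨a, ha⟩ := hspan (β q u0)
    refine ⟨a, fun u => ?_⟩
    obtain ⟨i, hi⟩ := hspan u
    have h1 := hker q (u * (u0 ^ i)⁻¹) (by rw [map_mul, map_inv, map_zpow, hi, mul_inv_cancel])
    rw [map_mul, map_mul, map_inv, map_inv, map_zpow, map_zpow, mul_inv_eq_one] at h1
    rw [h1, ← ha, ← hi, ← zpow_mul, ← zpow_mul, mul_comm]
  let S : Subgroup Φ :=
    { carrier := {q | ∀ u, f (β q u) = f u}
      one_mem' := fun u => by rw [hβone]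
      mul_mem' := fun {a b} ha hb u => by rw [hβmul, ha, hb]
      inv_mem' := fun {a} ha u => by
        have h := ha (β a⁻¹ u)
        rw [← hβmul, mul_inv_cancel, hβone] at h
        exact h.symm }
  have hS : commutator Φ ≤ S := by
    rw [_root_.commutator_def, commutator_le]
    intro a _ b _ u
    have hab : ∀ v, f (β (a * b) v) = f (β (b * a) v) := fun v => by
      obtain ⟨x, hx⟩ := hscalar a
      obtain ⟨y, hy⟩ := hscalar b
      rw [hβmul, hβmul, hx, hy, hy, hx, ← zpow_mul, ← zpow_mul, mul_comm]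
    calc f (β ⁅a, b⁆ u) = f (β (a * b) (β ((b * a)⁻¹) u)) := by
          rw [← hβmul, commutatorElement_def]
          congr 3
          group
      _ = f (β (b * a) (β ((b * a)⁻¹) u)) := hab _
      _ = f u := by rw [← hβmul, mul_inv_cancel, hβone]
  let F : ↥(commutator Φ) →* ↥Q :=
    MonoidHom.mk' (fun q => f ⟨_, hw q⟩) fun a b => by
      have e : (⟨_, hw ((a * b : ↥(commutator Φ)) : Φ)⟩ : ↥U) =
          ⟨_, hw a⟩ * β a ⟨_, hw b⟩ := Subtype.ext (by
        show w⁻¹ * α ((a : Φ) * b) w = w⁻¹ * α a w * α a (w⁻¹ * α b w)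
        rw [map_mul α, MulAut.mul_apply, map_mul, map_inv]
        group)
      simp only [e, map_mul, hS a.2 _]
  letI := IsCyclic.commGroup (α := ↥Q)
  rw [← map_subtype_commutator] at hp
  obtain ⟨q, hq, rfl⟩ := hp
  have h1 : f ⟨_, hw q⟩ = 1 := MonoidHom.mem_ker.mp
    ((Abelianization.commutator_subset_ker F) hq)
  exact Subgroup.orderOf_coe (⟨_, hw q⟩ : ↥U) ▸ (hf _).mp h1

end Cfsg.Agent.H33.IntrinsicSL2
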