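import Cfsg.Agent.H76.UniqueInvolution
import Cfsg.Agent.H77.TransferTwo
import Cfsg.Agent.H51.FourGroupRankOne
import Cfsg.Agent.H51.PLayer

/-!
Perfect groups with a single involution: elements of order four and their fusion.
-/

set_option autoImplicit false

namespace Cfsg.Agent.H33.IntrinsicSL2

open Subgroup
open scoped Pointwise

variable {X : Type*} [Group X]

theorem orderOf_eq_two {u : X} (h : u * u = 1) (h1 : u ≠ 1) : orderOf u = 2 :=
  orderOf_eq_prime (by rw [pow_two, h]) h1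

theorem mul_self_of_two {u : X} (h : orderOf u = 2) : u * u = 1 := by
  rw [← pow_two, ← h, pow_orderOf_eq_one]

theorem ne_one_of_two {u : X} (h : orderOf u = 2) : u ≠ 1 := by
  rintro rfl; simp at h

/-- Elements of a cyclic group with generator squaring to a central involution. -/
theorem zpowers_cases {x z : X} (hx : x * x = z) (hz : z * z = 1) {w : X} (hw : w ∈ zpowers x) :
    w = 1 ∨ w = x ∨ w = z ∨ w = x⁻¹ := by
  obtain ⟨i, rfl⟩ := mem_zpowers_iff.mp hw
  have hp : ∀ k : ℤ, x ^ (4 * k) = 1 := fun k => by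
    rw [zpow_mul]
    have : x ^ (4 : ℤ) = 1 := by
      rw [show (4 : ℤ) = 1 + 1 + (1 + 1) from rfl, zpow_add, zpow_add, zpow_one, hx, hz]
    rw [this, one_zpow]
  obtain ⟨q, r, hr, rfl⟩ : ∃ q r : ℤ, (r = 0 ∨ r = 1 ∨ r = 2 ∨ r = -1) ∧ i = 4 * q + r := by
    rcases (by omega : i % 4 = 0 ∨ i % 4 = 1 ∨ i % 4 = 2 ∨ i % 4 = 3) with h | h | h | h
    · exact ⟨i / 4, 0, by omega, by omega⟩
    · exact ⟨i / 4, 1, by omega, by omega⟩
    · exact ⟨i / 4, 2, by omega, by omega⟩
    · exact ⟨i / 4 + 1, -1, by omega, by omega⟩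
  rw [zpow_add, hp, one_mul]
  rcases hr with rfl | rfl | rfl | rfl
  · exact Or.inl (zpow_zero x)
  · exact Or.inr (Or.inl (zpow_one x))
  · refine Or.inr (Or.inr (Or.inl ?_))
    rw [show (2 : ℤ) = 1 + 1 from rfl, zpow_add, zpow_one, hx]
  · exact Or.inr (Or.inr (Or.inr (zpow_neg_one x)))

/-- A finite perfect group with exactly one involution `z`. -/
structure UPerf (z : X) : Prop where
  ord : orderOf z = 2
  uniq : ∀ u : X, orderOf u = 2 → u = z
  perf : Group.IsPerfect X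

/-- The shape of a Sylow 2-subgroup: the cyclic part is generated by `r`. -/
structure Shape (z : X) (Q : Subgroup X) (r : X) : Prop where
  mem : r ∈ Q
  outside : ∀ g ∈ Q, g ∉ zpowers r → g * g = z ∧ g * r * g⁻¹ = r⁻¹
  prod : ∀ g ∈ Q, ∀ h ∈ Q, g ∉ zpowers r → h ∉ zpowers r → g * h ∈ zpowers r
  zmem : z ∈ zpowers r
  out : ∃ g ∈ Q, g ∉ zpowers r
  big : r * r ≠ 1

theorem UPerf.mul_self {z : X} (H : UPerf z) : z * z = 1 := mul_self_of_two H.ord

theorem UPerf.inv_eq {z : X} (H : UPerf z) : z⁻¹ = z := inv_eq_of_mul_eq_one_right H.mul_self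

theorem UPerf.ne_one {z : X} (H : UPerf z) : z ≠ 1 := ne_one_of_two H.ord

theorem UPerf.conj {z : X} (H : UPerf z) (g : X) : g * z * g⁻¹ = z :=
  H.uniq _ (by rw [← H.ord]; exact orderOf_injective (MulAut.conj g).toMonoidHom (MulAut.conj g).injective z)

theorem UPerf.comm {z : X} (H : UPerf z) (g : X) : g * z = z * g :=
  mul_inv_eq_iff_eq_mul.mp (H.conj g)

theorem UPerf.sq_one {z : X} (H : UPerf z) {u : X} (h : u * u = 1) : u = 1 ∨ u = z := by
  by_cases h1 : u = 1
  · exact Or.inl h1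
  · exact Or.inr (H.uniq u (orderOf_eq_two h h1))

theorem UPerf.inv_of_sq {z : X} (H : UPerf z) {x : X} (hx : x * x = z) : x⁻¹ = x * z := by
  refine inv_eq_of_mul_eq_one_right ?_
  rw [← mul_assoc, hx, H.mul_self]

theorem UPerf.inv_sq {z : X} (H : UPerf z) {x : X} (hx : x * x = z) : x⁻¹ * x⁻¹ = z := by
  rw [← mul_inv_rev, hx, H.inv_eq]

theorem UPerf.ne_of_sq {z : X} (H : UPerf z) {x : X} (hx : x * x = z) : x ≠ 1 ∧ x ≠ z := by
  refine ⟨?_, ?_⟩ <;> rintro rfl
  · exact H.ne_one (by simpa using hx.symm)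
  · exact H.ne_one (hx.symm.trans H.mul_self)

/-- Two commuting elements with square `z` differ by a sign. -/
theorem UPerf.eq_or_inv {z : X} (H : UPerf z) {v w : X} (hv : v * v = z) (hw : w * w = z)
    (hc : v * w = w * v) : w = v ∨ w = v⁻¹ := by
  have h : (v⁻¹ * w) * (v⁻¹ * w) = 1 := by
    have e : w * v⁻¹ = v⁻¹ * w := ((show Commute v w from hc).inv_left.eq).symm
    calc (v⁻¹ * w) * (v⁻¹ * w) = v⁻¹ * (w * v⁻¹) * w := by group
      _ = (v⁻¹ * v⁻¹) * (w * w) := by rw [e]; group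
      _ = 1 := by rw [H.inv_sq hv, hw, H.mul_self]
  rcases H.sq_one h with h | h
  · exact Or.inl (by rw [inv_mul_eq_one] at h; exact h.symm)
  · refine Or.inr ?_
    rw [inv_mul_eq_iff_eq_mul] at h
    rw [h, H.inv_of_sq hv]

variable [Finite X]

theorem UPerf.index_ne_two {z : X} (H : UPerf z) (M : Subgroup X) : M.index ≠ 2 := by
  intro h
  haveI := H.perf
  haveI : M.Normal := Subgroup.normal_of_index_eq_two h
  have h1 : commutator X ≤ M := by
    rw [_root_.commutator_def, commutator_le]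
    intro a _ b _
    rw [commutatorElement_def]
    have key : ∀ u v : X, (u * v ∈ M) ↔ (v * u ∈ M) := fun u v => Subgroup.Normal.mem_comm_iff inferInstance
    by_cases ha : a ∈ M <;> by_cases hb : b ∈ M <;>
      simp [mul_mem_iff_of_index_two h, ha, hb]
  rw [Group.IsPerfect.commutator_eq_top] at h1
  rw [top_le_iff.mp h1, index_top] at h
  omega

theorem UPerf.exists_shape {z : X} (H : UPerf z) (Q : Sylow 2 X) :
    z ∈ (Q : Subgroup X) ∧ ∃ r, Shape z (Q : Subgroup X) r := by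
  haveI : Fact (Nat.Prime 2) := ⟨Nat.prime_two⟩
  have hzQ : z ∈ (Q : Subgroup X) := by
    obtain ⟨P, hP⟩ := (IsPGroup.of_card (n := 1) (p := 2) (G := zpowers z)
      (by rw [Nat.card_zpowers, H.ord, pow_one])).exists_le_sylow
    obtain ⟨g, hg⟩ := MulAction.exists_smul_eq X P Q
    have h1 : g * z * g⁻¹ ∈ ((g • P : Sylow 2 X) : Subgroup X) := by
      rw [Sylow.coe_subgroup_smul, mem_smul_pointwise_iff_exists]
      exact ⟨z, hP (mem_zpowers z), rfl⟩
    rwa [hg, H.conj] at h1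
  refine ⟨hzQ, ?_⟩
  have huniq : ∀ a : ↥(Q : Subgroup X), orderOf a = 2 → a = ⟨z, hzQ⟩ := fun a ha =>
    Subtype.ext (H.uniq _ (by rw [Subgroup.orderOf_coe]; exact ha))
  have hzo : orderOf (⟨z, hzQ⟩ : ↥(Q : Subgroup X)) = 2 := by
    rw [← Subgroup.orderOf_coe]; exact H.ord
  have hna : ¬ IsMulCommutative ↥(Q : Subgroup X) := by
    intro hc
    obtain ⟨a, haQ, ha⟩ := H51.FourGroupRankOne.exists_generator_of_unique_involution (A := (Q : Subgroup X)) Q.isPGroup'
      (fun a ha b hb => congrArg Subtype.val (hc.is_comm.comm ⟨a, ha⟩ ⟨b, hb⟩))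
      (z := z) (fun a _ h => H.sq_one h)
    haveI hcyc : IsCyclic ↥(Q : Subgroup X) := by
      refine ⟨⟨a, haQ⟩, fun b => ?_⟩
      obtain ⟨i, hi⟩ := mem_zpowers_iff.mp (ha b b.2)
      exact mem_zpowers_iff.mpr ⟨i, Subtype.ext (by simpa using hi)⟩
    have h2 : (2 : ℕ) = (Nat.card X).minFac := by
      have h2d : 2 ∣ Nat.card X := H.ord ▸ orderOf_dvd_natCard z
      exact ((Nat.minFac_eq_two_iff _).mpr h2d).symm
    have hN := IsCyclic.normalizer_le_centralizer h2.symm hcyc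
    set f := MonoidHom.transferSylow Q hN
    have hc' := MonoidHom.ker_transferSylow_isComplement' Q hN
    haveI := H.perf
    have hker : f.ker = ⊤ := by
      rw [eq_top_iff, ← Group.IsPerfect.commutator_eq_top (G := X), _root_.commutator_def, commutator_le]
      intro u _ v _
      rw [MonoidHom.mem_ker, map_commutatorElement, commutatorElement_eq_one_iff_commute]
      exact hc.is_comm.comm _ _
    have hbot : (Q : Subgroup X) = ⊥ := by
      have := hc'.disjoint
      rwa [hker, top_disjoint] at this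
    exact H.ne_one (by rw [hbot, mem_bot] at hzQ; exact hzQ)
  obtain ⟨x, hprod, hout⟩ := H76.exists_cyclic_index_two_of_unique_involution Q.isPGroup' hna
    ⟨⟨z, hzQ⟩, hzo, huniq⟩
  have hmem : ∀ (g : X) (hg : g ∈ (Q : Subgroup X)), g ∈ zpowers (x : X) ↔ (⟨g, hg⟩ : ↥(Q : Subgroup X)) ∈ zpowers x := by
    intro g hg
    simp only [mem_zpowers_iff, Subtype.ext_iff, Subgroup.coe_zpow]
  have outside : ∀ g ∈ (Q : Subgroup X), g ∉ zpowers (x : X) →
      g * g = z ∧ g * (x : X) * g⁻¹ = (x : X)⁻¹ := by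
    intro g hg hgx
    obtain ⟨h1, h2⟩ := hout ⟨g, hg⟩ (mt (hmem g hg).mpr hgx)
    refine ⟨H.uniq _ ?_, congrArg Subtype.val h1⟩
    rw [← Subgroup.orderOf_coe] at h2
    simpa [pow_two] using h2
  obtain ⟨g0, hg0⟩ : ∃ g : ↥(Q : Subgroup X), g ∉ zpowers x := by
    by_contra h
    push Not at h
    refine hna ⟨⟨fun a b => ?_⟩⟩
    obtain ⟨i, rfl⟩ := mem_zpowers_iff.mp (h a)
    obtain ⟨j, rfl⟩ := mem_zpowers_iff.mp (h b)
    exact zpow_mul_comm x i j
  have hg0' : (g0 : X) ∉ zpowers (x : X) := mt (hmem g0 g0.2).mp hg0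
  refine ⟨x, ⟨x.2, outside, fun g hg h hh hgx hhx => ?_, ?_, ⟨g0, g0.2, hg0'⟩, ?_⟩⟩
  · exact (hmem _ (mul_mem hg hh)).mpr (hprod ⟨g, hg⟩ ⟨h, hh⟩ (mt (hmem g hg).mpr hgx) (mt (hmem h hh).mpr hhx))
  · rw [← (outside g0 g0.2 hg0').1]
    exact (hmem _ (mul_mem g0.2 g0.2)).mpr (hprod g0 g0 hg0 hg0)
  · intro hxx
    refine hna ⟨⟨fun a b => ?_⟩⟩
    -- `x` is then central
    have hxc : ∀ g : ↥(Q : Subgroup X), Commute g x := by
      intro g
      refine Subtype.ext ?_
      show (g : X) * x = x * g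
      rcases H.sq_one hxx with h | h
      · rw [h, mul_one, one_mul]
      · rw [h]; exact H.comm _
    have ha : ∀ g : ↥(Q : Subgroup X), g ∈ zpowers x ∨ g * g0 ∈ zpowers x := fun g => by
      by_cases hg : g ∈ zpowers x
      · exact Or.inl hg
      · exact Or.inr (hprod g g0 hg hg0)
    have hcg : ∀ g : ↥(Q : Subgroup X), Commute g g0 := by
      intro g
      rcases ha g with h | h
      · obtain ⟨i, rfl⟩ := mem_zpowers_iff.mp h
        exact ((hxc g0).zpow_right i).symm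
      · obtain ⟨i, hi⟩ := mem_zpowers_iff.mp h
        rw [show g = x ^ i * g0⁻¹ by rw [hi]; group]
        exact (((hxc g0).zpow_right i).symm).mul_left (Commute.refl g0).inv_left
    rcases ha a with h | h
    · obtain ⟨i, rfl⟩ := mem_zpowers_iff.mp h
      exact ((hxc b).zpow_right i).symm.eq
    · obtain ⟨i, hi⟩ := mem_zpowers_iff.mp h
      rw [show a = x ^ i * g0⁻¹ by rw [hi]; group]
      exact ((((hxc b).zpow_right i).symm).mul_left (hcg b).symm.inv_left).eq

theorem Shape.comm {z : X} {Q : Subgroup X} {r : X} (_ : Shape z Q r) {a b : X}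
    (ha : a ∈ zpowers r) (hb : b ∈ zpowers r) : a * b = b * a := by
  obtain ⟨i, rfl⟩ := mem_zpowers_iff.mp ha
  obtain ⟨j, rfl⟩ := mem_zpowers_iff.mp hb
  exact zpow_mul_comm r i j

theorem Shape.inv_conj {z : X} {Q : Subgroup X} {r : X} (hS : Shape z Q r) {g a : X} (hg : g ∈ Q)
    (hgr : g ∉ zpowers r) (ha : a ∈ zpowers r) : g * a * g⁻¹ = a⁻¹ := by
  obtain ⟨i, rfl⟩ := mem_zpowers_iff.mp ha
  rw [show g * r ^ i * g⁻¹ = (g * r * g⁻¹) ^ i from (map_zpow (MulAut.conj g) r i),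
    (hS.outside g hg hgr).2, inv_zpow]

theorem exists_sq_in_zpowers {z r : X} (H : UPerf z) (hr : r * r ≠ 1) (hp : ∃ k, orderOf r = 2 ^ k) :
    ∃ v ∈ zpowers r, v * v = z := by
  obtain ⟨k, hk⟩ := hp
  have h2 : 2 ≤ k := by
    by_contra h
    exact hr (by rw [← pow_two]; exact orderOf_dvd_iff_pow_eq_one.mp (by
      rw [hk]; exact (pow_dvd_pow 2 (by omega : k ≤ 1)).trans (by norm_num)))
  refine ⟨r ^ 2 ^ (k - 2), pow_mem (mem_zpowers r) _, H.uniq _ ?_⟩
  rw [← pow_add, orderOf_pow, hk, show 2 ^ (k - 2) + 2 ^ (k - 2) = 2 ^ (k - 1) by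
    rw [← two_mul, ← pow_succ']; congr 1; omega,
    Nat.gcd_eq_right (pow_dvd_pow 2 (by omega)), Nat.pow_div (by omega) (by norm_num),
    show k - (k - 1) = 1 by omega, pow_one]

theorem two_pow_orderOf {Q : Sylow 2 X} {r : X} (hr : r ∈ (Q : Subgroup X)) :
    ∃ k, orderOf r = 2 ^ k := by
  haveI : Fact (Nat.Prime 2) := ⟨Nat.prime_two⟩
  obtain ⟨k, hk⟩ := IsPGroup.iff_orderOf.mp Q.isPGroup' ⟨r, hr⟩
  exact ⟨k, by rw [← hk, ← Subgroup.orderOf_coe]⟩

/-- In a Sylow subgroup only `1` and `z` are central. -/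
theorem UPerf.central {z : X} (H : UPerf z) (Q : Sylow 2 X) {x : X} (hx : x ∈ (Q : Subgroup X))
    (hc : ∀ q ∈ (Q : Subgroup X), x * q = q * x) : x = 1 ∨ x = z := by
  obtain ⟨-, r, hS⟩ := H.exists_shape Q
  obtain ⟨g, hgQ, hg⟩ := hS.out
  refine H.sq_one ?_
  by_cases hxr : x ∈ zpowers r
  · have h := hS.inv_conj hgQ hg hxr
    rw [← hc g hgQ, mul_inv_cancel_right] at h
    nth_rw 1 [h]
    exact inv_mul_cancel x
  · exfalso
    have h := (hS.outside x hx hxr).2
    rw [hc r hS.mem, mul_inv_cancel_right] at h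
    apply hS.big
    nth_rw 1 [h]
    exact inv_mul_cancel r

/-- Every element with square `z` is inverted by another one of the same Sylow subgroup. -/
theorem UPerf.exists_inverted {z : X} (H : UPerf z) (Q : Sylow 2 X) {x : X}
    (hx : x ∈ (Q : Subgroup X)) (hxz : x * x = z) :
    ∃ s ∈ (Q : Subgroup X), s * s = z ∧ s * x * s⁻¹ = x⁻¹ := by
  obtain ⟨-, r, hS⟩ := H.exists_shape Q
  by_cases hxr : x ∈ zpowers r
  · obtain ⟨g, hgQ, hg⟩ := hS.out
    exact ⟨g, hgQ, (hS.outside g hgQ hg).1, hS.inv_conj hgQ hg hxr⟩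
  · obtain ⟨v, hv, hvz⟩ := exists_sq_in_zpowers H hS.big (two_pow_orderOf hS.mem)
    refine ⟨v, zpowers_le.mpr hS.mem hv, hvz, ?_⟩
    have h : x * v⁻¹ * x⁻¹ = v := by
      simpa using hS.inv_conj hx hxr (inv_mem hv)
    calc v * x * v⁻¹ = v * (x * v⁻¹ * x⁻¹) * x := by group
      _ = z * x := by rw [h, hvz]
      _ = x⁻¹ := by rw [H.inv_of_sq hxz, H.comm]

/-- A nontrivial involutory automorphism of a Sylow subgroup negates an element with square `z`. -/
theorem UPerf.negated {z : X} (H : UPerf z) (Q : Sylow 2 X) (τ : X → X)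
    (hτQ : ∀ q ∈ (Q : Subgroup X), τ q ∈ (Q : Subgroup X))
    (hmul : ∀ a ∈ (Q : Subgroup X), ∀ b ∈ (Q : Subgroup X), τ (a * b) = τ a * τ b)
    (hinv : ∀ q ∈ (Q : Subgroup X), τ (τ q) = q) (hne : ∃ q ∈ (Q : Subgroup X), τ q ≠ q) :
    ∃ s ∈ (Q : Subgroup X), s * s = z ∧ τ s = s * z := by
  obtain ⟨hzQ, r, hS⟩ := H.exists_shape Q
  have h1 : τ 1 = 1 := by
    have := hmul 1 (one_mem _) 1 (one_mem _)
    rw [one_mul] at this
    exact left_eq_mul.mp this
  have hτz : τ z = z := by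
    rcases H.sq_one (u := τ z) (by rw [← hmul z hzQ z hzQ, H.mul_self, h1]) with h | h
    · exact absurd ((hinv z hzQ).symm.trans (by rw [h, h1])) H.ne_one
    · exact h
  have hrQ : ∀ a ∈ zpowers r, a ∈ (Q : Subgroup X) := fun a ha => zpowers_le.mpr hS.mem ha
  by_cases hr : τ r ∈ zpowers r
  · -- the cyclic part is invariant
    have hpow : ∀ n : ℕ, τ (r ^ n) = τ r ^ n := by
      intro n
      induction n with
      | zero => simpa using h1
      | succ n ih => rw [pow_succ, hmul _ (pow_mem hS.mem n) _ hS.mem, ih, pow_succ]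
    have hR : ∀ a ∈ zpowers r, τ a ∈ zpowers r := by
      intro a ha
      rw [← mem_powers_iff_mem_zpowers, Submonoid.mem_powers_iff] at ha
      obtain ⟨n, rfl⟩ := ha
      rw [hpow]
      exact pow_mem hr n
    obtain ⟨w, hwQ, hwr, hw⟩ : ∃ w ∈ (Q : Subgroup X), w ∉ zpowers r ∧ τ w ≠ w := by
      by_contra hcon
      push Not at hcon
      obtain ⟨q, hq, hqne⟩ := hne
      by_cases hqr : q ∈ zpowers r
      · obtain ⟨g, hgQ, hg⟩ := hS.out
        have hqg : q * g ∉ zpowers r := fun h => hg (by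
          have := mul_mem (inv_mem hqr) h; rwa [inv_mul_cancel_left] at this)
        have e := hcon _ (mul_mem hq hgQ) hqg
        rw [hmul q hq g hgQ, hcon g hgQ hg] at e
        exact hqne (mul_right_cancel e)
      · exact hqne (hcon q hq hqr)
    have hτw : τ w ∉ zpowers r := fun h => hwr (hinv w hwQ ▸ hR _ h)
    set ρ := w⁻¹ * τ w with hρdef
    have hρ : ρ ∈ zpowers r :=
      hS.prod _ (inv_mem hwQ) _ (hτQ w hwQ) (fun h => hwr (by simpa using inv_mem h)) hτw
    have hτρ : τ ρ = ρ⁻¹ := by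
      have e := hinv w hwQ
      rw [show τ w = w * ρ by rw [hρdef]; group, hmul w hwQ ρ (hrQ ρ hρ),
        show τ w = w * ρ by rw [hρdef]; group, mul_assoc] at e
      exact eq_inv_of_mul_eq_one_right (mul_eq_left.mp e)
    have hρ1 : ρ ≠ 1 := fun h => hw (by rw [hρdef, inv_mul_eq_one] at h; exact h.symm)
    by_cases hρ2 : ρ * ρ = 1
    · refine ⟨w, hwQ, (hS.outside w hwQ hwr).1, ?_⟩
      rw [← (H.sq_one hρ2).resolve_left hρ1, hρdef]
      group
    · obtain ⟨v, hv, hvz⟩ := exists_sq_in_zpowers H hρ2 (two_pow_orderOf (hrQ ρ hρ))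
      have hvQ := hrQ v (zpowers_le.mpr hρ hv)
      refine ⟨v, hvQ, hvz, ?_⟩
      rw [← mem_powers_iff_mem_zpowers, Submonoid.mem_powers_iff] at hv
      obtain ⟨n, rfl⟩ := hv
      have hpow' : ∀ n : ℕ, τ (ρ ^ n) = (ρ ^ n)⁻¹ := by
        intro n
        induction n with
        | zero => simpa using h1
        | succ n ih =>
          rw [pow_succ, hmul _ (pow_mem (hrQ ρ hρ) n) _ (hrQ ρ hρ), ih, hτρ, ← mul_inv_rev, ← pow_succ',
            ← pow_succ]
      rw [hpow', H.inv_of_sq hvz]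
  · have hgz := (hS.outside _ (hτQ r hS.mem) hr).1
    have hrz : r * r = z := by
      have e := congrArg τ hgz
      rw [hmul _ (hτQ r hS.mem) _ (hτQ r hS.mem), hinv r hS.mem, hτz] at e
      exact e
    set g := τ r with hg
    have hrg : r * g ∉ zpowers r := fun h => hr (by
      have := mul_mem (inv_mem (mem_zpowers r)) h; rwa [inv_mul_cancel_left] at this)
    refine ⟨r * g, mul_mem hS.mem (hτQ r hS.mem), (hS.outside _ (mul_mem hS.mem (hτQ r hS.mem)) hrg).1, ?_⟩
    rw [hmul r hS.mem g (hτQ r hS.mem), ← hg, hinv r hS.mem]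
    have e := (hS.outside g (hτQ r hS.mem) hr).2
    rw [H.inv_of_sq hrz, mul_inv_eq_iff_eq_mul] at e
    rw [e, mul_assoc, ← H.comm g, ← mul_assoc]

/-- All elements with square `z` are conjugate up to inversion. -/
theorem UPerf.fusion {z : X} (H : UPerf z) {x x' : X} (hx : x * x = z) (hx' : x' * x' = z) :
    ∃ g : X, g * x * g⁻¹ = x' ∨ g * x * g⁻¹ = x'⁻¹ := by
  haveI : Fact (Nat.Prime 2) := ⟨Nat.prime_two⟩
  obtain ⟨Q⟩ : Nonempty (Sylow 2 X) := inferInstance
  obtain ⟨hzQ, r, hS⟩ := H.exists_shape Q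
  obtain ⟨v, hv, hvz⟩ := exists_sq_in_zpowers H hS.big (two_pow_orderOf hS.mem)
  have main : ∀ x : X, x * x = z → ∃ g : X, g * x * g⁻¹ = v ∨ g * x * g⁻¹ = v⁻¹ := by
    intro x hx
    obtain ⟨g0, hg0Q, hg0⟩ := hS.out
    have hrel : (zpowers r).relIndex (Q : Subgroup X) = 2 := by
      rw [relIndex, index_eq_two_iff']
      refine ⟨⟨g0, hg0Q⟩, fun b => ?_⟩
      simp only [mem_subgroupOf, Subgroup.coe_mul]
      by_cases hb : (b : X) ∈ zpowers r
      · refine Or.inr ⟨hb, fun h => hg0 ?_⟩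
        have := mul_mem h (inv_mem hb)
        rwa [mul_inv_cancel_right] at this
      · exact Or.inl ⟨hS.prod _ hg0Q _ b.2 hg0 hb, hb⟩
    have hord : orderOf x = 2 ^ 2 := by
      refine orderOf_eq_prime_pow (p := 2) (n := 1) ?_ ?_
      · intro h
        rw [pow_one, pow_two, hx] at h
        exact H.ne_one h
      · rw [show 2 ^ (1 + 1) = 2 + 2 from rfl, pow_add, pow_two, hx, H.mul_self]
    obtain ⟨g, hg⟩ := H77.exists_conj_mem_of_transfer H.index_ne_two Q (zpowers r)
      (zpowers_le.mpr hS.mem) hrel x 2 hord (fun k g hk hkd _ => by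
        have hk4 : k = 2 ∨ k = 4 := by
          have := Nat.le_of_dvd (by norm_num) hkd
          interval_cases k <;> norm_num at hkd <;> simp
        rcases hk4 with rfl | rfl
        · rw [pow_two, hx]
          have := H.conj g⁻¹
          rw [inv_inv] at this
          rw [this]; exact hS.zmem
        · rw [show x ^ 4 = (x * x) * (x * x) by simp [pow_succ, mul_assoc], hx, H.mul_self]
          simp)
    refine ⟨g, H.eq_or_inv hvz ?_ (hS.comm hv hg)⟩
    calc g * x * g⁻¹ * (g * x * g⁻¹) = g * (x * x) * g⁻¹ := by group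
      _ = z := by rw [hx]; exact H.conj g
  obtain ⟨g, hg⟩ := main x hx
  obtain ⟨g', hg'⟩ := main x' hx'
  refine ⟨g'⁻¹ * g, ?_⟩
  have e : g'⁻¹ * g * x * (g'⁻¹ * g)⁻¹ = g'⁻¹ * (g * x * g⁻¹) * g' := by group
  rw [e]
  rcases hg with hg | hg <;> rcases hg' with hg' | hg' <;> rw [hg]
  · left; rw [← hg']; group
  · right; rw [show v = (g' * x' * g'⁻¹)⁻¹ by rw [hg', inv_inv]]; group
  · right; rw [← hg']; group
  · left; rw [← hg']; group

theorem mul_pair_sq {z : X} (H : UPerf z) {c s : X} (hcs : c * s * c⁻¹ = s⁻¹) (hc : c * c = z)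
    (hs : s * s = z) :
    (c * s) * (c * s) = z ∧ s * c = c * s * z ∧ c * (c * s) * c⁻¹ = (c * s)⁻¹ ∧
      s * (c * s) * s⁻¹ = (c * s)⁻¹ := by
  have h1 : c * s = s⁻¹ * c := mul_inv_eq_iff_eq_mul.mp hcs
  have hcc : c * c = s * s := hc.trans hs.symm
  have h2 : (c * s) * (c * s) = z := by
    calc (c * s) * (c * s) = (c * s * c⁻¹) * (c * c) * s := by group
      _ = s⁻¹ * z * s := by rw [hcs, hc]
      _ = z := by rw [mul_assoc, ← H.comm s, inv_mul_cancel_left]
  have h3 : s * c = c * s * z := by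
    rw [h1, H.inv_of_sq hs, mul_assoc s z c, ← H.comm c, mul_assoc s (c * z) z,
      mul_assoc c z z, H.mul_self, mul_one]
  refine ⟨h2, h3, ?_, ?_⟩
  · rw [H.inv_of_sq h2, ← h3]
    calc c * (c * s) * c⁻¹ = (c * c) * s * c⁻¹ := by group
      _ = s * (c * c) * c⁻¹ := by rw [hc, H.comm]
      _ = s * c := by group
  · rw [H.inv_of_sq h2, ← h3]
    group

/-- Any element with square `z` in a Sylow subgroup without larger cyclic part is one of the six. -/
theorem small_cases {z : X} (H : UPerf z) {Q : Sylow 2 X} {r : X} (hS : Shape z (Q : Subgroup X) r)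
    (hr : r * r = z) {c s : X} (hcQ : c ∈ (Q : Subgroup X)) (hsQ : s ∈ (Q : Subgroup X))
    (hc : c * c = z) (hs : s * s = z) (hcs : c * s * c⁻¹ = s⁻¹) {d : X}
    (hdQ : d ∈ (Q : Subgroup X)) (hd : d * d = z) :
    d = c ∨ d = c⁻¹ ∨ d = s ∨ d = s⁻¹ ∨ d = c * s ∨ d = (c * s)⁻¹ := by
  obtain ⟨hx, hsc, -, -⟩ := mul_pair_sq H hcs hc hs
  have hxi : (c * s)⁻¹ = c * s * z := H.inv_of_sq hx
  -- elements of the cyclic part with square `z`
  have hR : ∀ e ∈ zpowers r, e * e = z → zpowers e = zpowers r := by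
    intro e he hez
    rcases H.eq_or_inv hr hez (hS.comm (mem_zpowers r) he) with rfl | rfl
    · rfl
    · rw [zpowers_inv]
  have key : ∀ e f : X, e * e = z → e ∈ zpowers r → f ∉ zpowers r → f ∈ (Q : Subgroup X) →
      (d = e ∨ d = e⁻¹) ∨ d = f ∨ d = e * f ∨ d = z * f ∨ d = e⁻¹ * f := by
    intro e f he her hfr hfQ
    by_cases hdr : d ∈ zpowers r
    · exact Or.inl (H.eq_or_inv he hd (hS.comm her hdr))
    · have h := hS.prod d hdQ f⁻¹ (inv_mem hfQ) hdr (fun h => hfr (by simpa using inv_mem h))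
      rw [← hR e her he] at h
      right
      rcases zpowers_cases he H.mul_self h with h | h | h | h <;> rw [mul_inv_eq_iff_eq_mul] at h
      · exact Or.inl (by rw [h, one_mul])
      · exact Or.inr (Or.inl h)
      · exact Or.inr (Or.inr (Or.inl h))
      · exact Or.inr (Or.inr (Or.inr h))
  have hne : ¬ (c ∈ zpowers r ∧ s ∈ zpowers r) := fun ⟨h1, h2⟩ => by
    rw [hS.comm h1 h2, mul_inv_cancel_right] at hcs
    exact H.ne_one (by rw [← hs]; nth_rw 1 [hcs]; exact inv_mul_cancel s)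
  by_cases hcr : c ∈ zpowers r
  · have hsr : s ∉ zpowers r := fun h => hne ⟨hcr, h⟩
    rcases key c s hc hcr hsr hsQ with (h | h) | h | h | h | h
    · exact Or.inl h
    · exact Or.inr (Or.inl h)
    · exact Or.inr (Or.inr (Or.inl h))
    · exact Or.inr (Or.inr (Or.inr (Or.inr (Or.inl h))))
    · exact Or.inr (Or.inr (Or.inr (Or.inl (by rw [h, H.inv_of_sq hs, H.comm]))))
    · refine Or.inr (Or.inr (Or.inr (Or.inr (Or.inr ?_))))
      rw [h, H.inv_of_sq hc, hxi, mul_assoc c z s, ← H.comm s, ← mul_assoc]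
  · by_cases hsr : s ∈ zpowers r
    · rcases key s c hs hsr hcr hcQ with (h | h) | h | h | h | h
      · exact Or.inr (Or.inr (Or.inl h))
      · exact Or.inr (Or.inr (Or.inr (Or.inl h)))
      · exact Or.inl h
      · exact Or.inr (Or.inr (Or.inr (Or.inr (Or.inr (by rw [h, hsc, hxi])))))
      · exact Or.inr (Or.inl (by rw [h, H.inv_of_sq hc, H.comm]))
      · refine Or.inr (Or.inr (Or.inr (Or.inr (Or.inl ?_))))
        rw [h, H.inv_of_sq hs, mul_assoc s z c, ← H.comm c, ← mul_assoc, hsc, mul_assoc (c * s) z z,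
          H.mul_self, mul_one]
    · have hxr : c * s ∈ zpowers r := hS.prod c hcQ s hsQ hcr hsr
      rcases key (c * s) c hx hxr hcr hcQ with (h | h) | h | h | h | h
      · exact Or.inr (Or.inr (Or.inr (Or.inr (Or.inl h))))
      · exact Or.inr (Or.inr (Or.inr (Or.inr (Or.inr h))))
      · exact Or.inl h
      · refine Or.inr (Or.inr (Or.inl ?_))
        rw [h, mul_assoc c s c, hsc, ← mul_assoc, ← mul_assoc, hc]
        rw [← H.comm s, mul_assoc, H.mul_self, mul_one]
      · exact Or.inr (Or.inl (by rw [h, H.inv_of_sq hc, H.comm]))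
      · refine Or.inr (Or.inr (Or.inr (Or.inl ?_)))
        rw [h, mul_inv_rev, inv_mul_cancel_right]

/-- An anticommuting pair of elements with square `z`: some element moves the first axis to the
second, and its inverse moves it to one of the other two. -/
theorem UPerf.axes {z : X} (H : UPerf z) {c s : X} (hc : c * c = z) (hs : s * s = z)
    (hcs : c * s * c⁻¹ = s⁻¹) :
    ∃ h : X, (h * c * h⁻¹ = s ∨ h * c * h⁻¹ = s⁻¹) ∧
      (h⁻¹ * c * h = s ∨ h⁻¹ * c * h = s⁻¹ ∨ h⁻¹ * c * h = c * s ∨ h⁻¹ * c * h = (c * s)⁻¹) := by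
  haveI : Fact (Nat.Prime 2) := ⟨Nat.prime_two⟩
  obtain ⟨hx, hsc, hcx, hsx⟩ := mul_pair_sq H hcs hc hs
  obtain ⟨x, hxdef⟩ : ∃ x, x = c * s := ⟨_, rfl⟩
  rw [← hxdef] at hx hsc hcx hsx
  rw [← hxdef]
  -- a Sylow subgroup normalising `⟨x⟩` and containing `c` and `s`
  have hnorm : ∀ (a e : X), a * a = z → (e * a * e⁻¹ = a ∨ e * a * e⁻¹ = a⁻¹) →
      e ∈ normalizer (zpowers a : Set X) := by
    intro a e _ h
    rw [H51.mem_normalizer_iff_map_conj_eq, MonoidHom.map_zpowers]
    show zpowers (e * a * e⁻¹) = zpowers a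
    rcases h with h | h <;> rw [h]
    exact zpowers_inv
  obtain ⟨Q0⟩ : Nonempty (Sylow 2 X) := inferInstance
  obtain ⟨-, r0, hS0⟩ := H.exists_shape Q0
  obtain ⟨v, hv, hvz⟩ := exists_sq_in_zpowers H hS0.big (two_pow_orderOf hS0.mem)
  have hQ0 : ∀ g ∈ (Q0 : Subgroup X), g * v * g⁻¹ = v ∨ g * v * g⁻¹ = v⁻¹ := by
    intro g hg
    by_cases hgr : g ∈ zpowers r0
    · exact Or.inl (by rw [hS0.comm hgr hv, mul_inv_cancel_right])
    · exact Or.inr (hS0.inv_conj hg hgr hv)
  obtain ⟨g, hg⟩ := H.fusion hvz hx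
  set N := normalizer (zpowers x : Set X)
  have hQ1 : ((g • Q0 : Sylow 2 X) : Subgroup X) ≤ N := by
    intro e he
    rw [Sylow.coe_subgroup_smul, mem_smul_pointwise_iff_exists] at he
    obtain ⟨q, hq, rfl⟩ := he
    refine hnorm x _ hx ?_
    have e1 : MulAut.conj g • q = g * q * g⁻¹ := rfl
    rw [e1]
    rcases hg with hg | hg <;> rcases hQ0 q hq with h | h
    · left; rw [← hg]; calc _ = g * (q * v * q⁻¹) * g⁻¹ := by group
        _ = _ := by rw [h]
    · right; rw [← hg]; calc _ = g * (q * v * q⁻¹) * g⁻¹ := by group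
        _ = _ := by rw [h]; group
    · left
      have : x = (g * v * g⁻¹)⁻¹ := by rw [hg, inv_inv]
      rw [this]; calc _ = g * (q * v * q⁻¹)⁻¹ * g⁻¹ := by group
        _ = _ := by rw [h]; group
    · right
      have : x = (g * v * g⁻¹)⁻¹ := by rw [hg, inv_inv]
      rw [this]; calc _ = g * (q * v * q⁻¹)⁻¹ * g⁻¹ := by group
        _ = _ := by rw [h]; group
  set W := zpowers s ⊔ zpowers c
  have hcW : c ∈ W := le_sup_right (α := Subgroup X) (mem_zpowers c)
  have hsW : s ∈ W := le_sup_left (α := Subgroup X) (mem_zpowers s)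
  have hW : IsPGroup 2 W := by
    have h4 : ∀ a : X, a * a = z → IsPGroup 2 (zpowers a) := fun a ha => by
      refine IsPGroup.of_card (n := 2) ?_
      rw [Nat.card_zpowers]
      refine orderOf_eq_prime_pow (p := 2) (n := 1) ?_ ?_
      · intro h
        rw [pow_one, pow_two, ha] at h
        exact H.ne_one h
      · rw [show 2 ^ (1 + 1) = 2 + 2 from rfl, pow_add, pow_two, ha, H.mul_self]
    exact (h4 s hs).to_sup_of_normal_left' (h4 c hc) (zpowers_le.mpr (hnorm s c hs (Or.inr hcs)))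
  have hWN : W ≤ N := sup_le (zpowers_le.mpr (hnorm x s hx (Or.inr hsx)))
    (zpowers_le.mpr (hnorm x c hx (Or.inr hcx)))
  obtain ⟨Q, hQN, hWQ⟩ : ∃ Q : Sylow 2 X, (Q : Subgroup X) ≤ N ∧ W ≤ (Q : Subgroup X) := by
    obtain ⟨P, hP⟩ := (hW.comap_of_injective N.subtype N.subtype_injective).exists_le_sylow
    obtain ⟨n, hn⟩ := MulAction.exists_smul_eq N ((g • Q0).subtype hQ1) P
    refine ⟨(n : X) • (g • Q0), Sylow.smul_le hQ1 n, fun e he => ?_⟩
    have h1 : (⟨e, hWN he⟩ : N) ∈ (n • (g • Q0).subtype hQ1 : Sylow 2 N) := hn ▸ hP (show (⟨e, hWN he⟩ : N) ∈ W.comap N.subtype from he)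
    rw [Sylow.smul_subtype] at h1
    exact h1
  have hcQ := hWQ hcW
  have hsQ := hWQ hsW
  obtain ⟨-, r, hS⟩ := H.exists_shape Q
  by_cases hr : r * r = z
  · obtain ⟨h0, hh0⟩ := H.fusion hc hs
    have hlist := fun {d : X} => small_cases H hS hr hcQ hsQ hc hs hcs (d := d)
    have hQgen : ∀ (N' : Subgroup X), c ∈ N' → s ∈ N' → (Q : Subgroup X) ≤ N' := by
      intro N' hcN hsN d hd
      by_cases hdd : d * d = z
      · rcases hlist hd hdd with rfl | rfl | rfl | rfl | rfl | rfl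
        exacts [hcN, inv_mem hcN, hsN, inv_mem hsN, mul_mem hcN hsN, inv_mem (mul_mem hcN hsN)]
      · have hdr : d ∈ zpowers r := by
          by_contra h; exact hdd (hS.outside d hd h).1
        rcases zpowers_cases hr H.mul_self hdr with rfl | rfl | rfl | rfl
        · exact one_mem _
        · exact absurd hr hdd
        · rw [← hc]; exact mul_mem hcN hcN
        · exact absurd (H.inv_sq hr) hdd
    set M := normalizer (zpowers s : Set X)
    have hQM : (Q : Subgroup X) ≤ M :=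
      hQgen M (hnorm s c hs (Or.inr hcs)) (hnorm s s hs (Or.inl (mul_inv_cancel_right s s)))
    have hQ'M : ((h0 • Q : Sylow 2 X) : Subgroup X) ≤ M := by
      intro e he
      rw [Sylow.coe_subgroup_smul, mem_smul_pointwise_iff_exists] at he
      obtain ⟨q, hq, rfl⟩ := he
      refine hQgen (M.comap (MulAut.conj h0).toMonoidHom) ?_ ?_ hq
      · refine hnorm s _ hs ?_
        show h0 * c * h0⁻¹ * s * (h0 * c * h0⁻¹)⁻¹ = s ∨ _
        left
        rcases hh0 with h | h <;> rw [h] <;> group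
      · refine hnorm s _ hs ?_
        show h0 * s * h0⁻¹ * s * (h0 * s * h0⁻¹)⁻¹ = s ∨ h0 * s * h0⁻¹ * s * (h0 * s * h0⁻¹)⁻¹ = s⁻¹
        right
        have e0 : h0 * s * h0⁻¹ * (h0 * c * h0⁻¹) * (h0 * s * h0⁻¹)⁻¹ = (h0 * c * h0⁻¹)⁻¹ := by
          calc _ = h0 * (s * c * s⁻¹) * h0⁻¹ := by group
            _ = h0 * c⁻¹ * h0⁻¹ := by
              rw [show s * c * s⁻¹ = c⁻¹ by
                rw [hsc, hxdef, H.inv_of_sq hc, mul_assoc, mul_assoc, ← mul_assoc s z, H.conj s]]
            _ = _ := by group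
        rcases hh0 with h | h
        · rwa [h] at e0
        · rw [h, inv_inv] at e0
          rw [← inv_inj, inv_inv]
          refine Eq.trans ?_ e0
          group
    obtain ⟨n, hn⟩ := MulAction.exists_smul_eq M ((h0 • Q).subtype hQ'M) (Q.subtype hQM)
    have hnQ : ((n : X) * h0) • Q = Q := by
      rw [mul_smul]
      refine Sylow.ext ?_
      have h1 := congrArg (fun P : Sylow 2 M => (P : Subgroup M).map M.subtype) hn
      simp only [Sylow.smul_subtype, Sylow.coe_subtype] at h1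
      rw [map_subgroupOf_eq_of_le (Sylow.smul_le hQ'M n),
        map_subgroupOf_eq_of_le hQM] at h1
      exact h1
    refine ⟨(n : X) * h0, ?_⟩
    have hns : (n : X) * s * (n : X)⁻¹ = s ∨ (n : X) * s * (n : X)⁻¹ = s⁻¹ := by
      have h1 : (n : X) * s * (n : X)⁻¹ ∈ zpowers s := (mem_normalizer_iff.mp n.2 s).mp (mem_zpowers s)
      have h2 : (n : X) * s * (n : X)⁻¹ * ((n : X) * s * (n : X)⁻¹) = z := by
        calc _ = (n : X) * (s * s) * (n : X)⁻¹ := by group
          _ = z := by rw [hs]; exact H.conj _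
      obtain ⟨i, hi⟩ := mem_zpowers_iff.mp h1
      exact H.eq_or_inv hs h2 (by rw [← hi]; exact ((Commute.refl s).zpow_right i).eq)
    have hfirst : (n : X) * h0 * c * ((n : X) * h0)⁻¹ = s ∨ (n : X) * h0 * c * ((n : X) * h0)⁻¹ = s⁻¹ := by
      have e : (n : X) * h0 * c * ((n : X) * h0)⁻¹ = (n : X) * (h0 * c * h0⁻¹) * (n : X)⁻¹ := by group
      rw [e]
      rcases hh0 with h | h <;> rcases hns with h' | h' <;> rw [h]
      · exact Or.inl h'
      · exact Or.inr h'
      · right; rw [show (n : X) * s⁻¹ * (n : X)⁻¹ = ((n : X) * s * (n : X)⁻¹)⁻¹ by group, h']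
      · left; rw [show (n : X) * s⁻¹ * (n : X)⁻¹ = ((n : X) * s * (n : X)⁻¹)⁻¹ by group, h', inv_inv]
    refine ⟨hfirst, ?_⟩
    set h := (n : X) * h0
    have hdQ : h⁻¹ * c * h ∈ (Q : Subgroup X) := by
      have h1 : c ∈ ((h • Q : Sylow 2 X) : Subgroup X) := by rw [hnQ]; exact hcQ
      rw [Sylow.coe_subgroup_smul, mem_pointwise_smul_iff_inv_smul_mem, ← map_inv] at h1
      simpa using h1
    have hdz : h⁻¹ * c * h * (h⁻¹ * c * h) = z := by
      calc _ = h⁻¹ * (c * c) * h := by group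
        _ = z := by rw [hc]; have := H.conj h⁻¹; rwa [inv_inv] at this
    have hbad : ∀ e : X, (e = c ∨ e = c⁻¹) → h⁻¹ * c * h ≠ e := by
      intro e he hee
      have h1 : h * e * h⁻¹ = c := by rw [← hee]; group
      have h2 : c = s ∨ c = s⁻¹ := by
        rcases he with rfl | rfl
        · rcases hfirst with h' | h' <;> rw [h'] at h1
          · exact Or.inl h1.symm
          · exact Or.inr h1.symm
        · rw [show h * c⁻¹ * h⁻¹ = (h * c * h⁻¹)⁻¹ by group] at h1
          rcases hfirst with h' | h' <;> rw [h'] at h1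
          · exact Or.inr h1.symm
          · exact Or.inl (by rw [← h1, inv_inv])
      have h3 : c * s * c⁻¹ = s := by
        rcases h2 with rfl | rfl <;> group
      rw [hcs] at h3
      exact H.ne_one (by rw [← hs]; nth_rw 1 [← h3]; exact inv_mul_cancel s)
    rcases hlist hdQ hdz with h' | h' | h' | h' | h' | h'
    · exact absurd h' (hbad c (Or.inl rfl))
    · exact absurd h' (hbad c⁻¹ (Or.inr rfl))
    · exact Or.inl h'
    · exact Or.inr (Or.inl h')
    · exact Or.inr (Or.inr (Or.inl (hxdef ▸ h')))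
    · exact Or.inr (Or.inr (Or.inr (hxdef ▸ h')))
  · -- the cyclic part contains a square root of `x`
    have hxQ : x ∈ (Q : Subgroup X) := hxdef ▸ mul_mem hcQ hsQ
    have hnx : ∀ e ∈ (Q : Subgroup X), e * x * e⁻¹ ∈ zpowers x := fun e he =>
      (mem_normalizer_iff.mp (hQN he) x).mp (mem_zpowers x)
    have hxr : x ∈ zpowers r := by
      by_contra hxr
      have h1 : x * r⁻¹ * x⁻¹ = r := by simpa using hS.inv_conj hxQ hxr (inv_mem (mem_zpowers r))
      have h2 : r * x * r⁻¹ = r * r * x := by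
        calc r * x * r⁻¹ = r * (x * r⁻¹ * x⁻¹) * x := by group
          _ = r * r * x := by rw [h1]
      have h3 : r * r ∈ zpowers x := by
        have := hnx r hS.mem
        rw [h2] at this
        exact (mul_mem_cancel_right (mem_zpowers x)).mp this
      have hrr : r * r ∈ zpowers r := mul_mem (mem_zpowers r) (mem_zpowers r)
      rcases zpowers_cases hx H.mul_self h3 with h | h | h | h
      · exact hS.big h
      · exact hxr (h ▸ hrr)
      · exact hr h
      · exact hxr (by simpa [h] using inv_mem hrr)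
    have hcr : c ∉ zpowers r := fun h => by
      have h1 : c * x * c⁻¹ = x := by rw [hS.comm h hxr, mul_inv_cancel_right]
      rw [hcx] at h1
      exact H.ne_one (by rw [← hx]; nth_rw 1 [← h1]; exact inv_mul_cancel x)
    obtain ⟨k, hk⟩ := mem_zpowers_iff.mp hxr
    obtain ⟨j, rfl⟩ | hodd := Int.even_or_odd k
    · have hh : c * (r ^ j)⁻¹ * c⁻¹ = r ^ j := by
        simpa using hS.inv_conj hcQ hcr (inv_mem (zpow_mem (mem_zpowers r) j))
      have hsq : r ^ j * r ^ j = x := by rw [← zpow_add, hk]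
      refine ⟨r ^ j, Or.inl ?_, Or.inr (Or.inl ?_)⟩
      · calc r ^ j * c * (r ^ j)⁻¹ = r ^ j * (c * (r ^ j)⁻¹ * c⁻¹) * c := by group
          _ = x * c := by rw [hh, hsq]
          _ = s⁻¹ * (c * c) := by rw [hxdef, ← hcs]; group
          _ = s := by rw [hc, H.inv_of_sq hs, mul_assoc, H.mul_self, mul_one]
      · have hh' : c * r ^ j = (r ^ j)⁻¹ * c := by
          have e := hS.inv_conj hcQ hcr (zpow_mem (mem_zpowers r) j)
          exact mul_inv_eq_iff_eq_mul.mp e
        calc (r ^ j)⁻¹ * c * r ^ j = (r ^ j)⁻¹ * (c * r ^ j) := by group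
          _ = (r ^ j * r ^ j)⁻¹ * c := by rw [hh']; group
          _ = s⁻¹ := by rw [hsq, hxdef]; group
    · exfalso
      obtain ⟨m, hm⟩ := two_pow_orderOf (Q := Q) hS.mem
      have h4 : r ^ (4 * k) = 1 := by
        rw [show (4 : ℤ) * k = k + k + (k + k) by ring, zpow_add, zpow_add, hk, hx, H.mul_self]
      rw [← orderOf_dvd_iff_zpow_eq_one, hm] at h4
      have hcop : IsCoprime ((2 ^ m : ℕ) : ℤ) k := by
        push_cast
        obtain ⟨w, hw⟩ := hodd
        exact IsCoprime.pow_left ⟨-w, 1, by rw [hw]; ring⟩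
      have h5 : r ^ (4 : ℤ) = 1 := by
        rw [← orderOf_dvd_iff_zpow_eq_one, hm]
        exact hcop.dvd_of_dvd_mul_right h4
      have h6 : (r * r) * (r * r) = 1 := by
        rw [← h5, show (4 : ℤ) = 1 + 1 + (1 + 1) from rfl, zpow_add, zpow_add, zpow_one]
      rcases H.sq_one h6 with h | h
      · exact hS.big h
      · exact hr h

end Cfsg.Agent.H33.IntrinsicSL2
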